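-- Generated: the letters of a matrix group.
import Cfsg.Agent.Lib.KnownSimple.SL29Lab.Final

set_option autoImplicit false
set_option maxRecDepth 100000

namespace Cfsg.Agent.Lib.KnownSimple.SL29Lab

open Cfsg.Agent.Lib.KnownSimple.Lab Cfsg.Agent.Lib.KnownSimple.LabMat Cfsg.Agent.Lib.KnownSimple.LabField Subgroup

/-- Words for the transvections. -/
def TW : List (List ℕ) := [[],[],[],[],[],[],[],[],[],[],[3, 2, 1, 2, 3, 0, 1],[3, 2, 1, 0, 3, 0, 1],[0, 1, 2, 3, 2],[2, 3, 2, 3, 0, 1, 0],[1, 2, 1, 0, 3],[0, 1, 0, 3, 2],[1, 2, 3, 0, 3],[2, 3, 2, 1, 0, 1, 0],[],[0, 1, 2, 1, 2, 3, 0, 3, 2],[0, 1, 2, 1, 0, 3, 0, 3, 2],[0, 3, 0, 1, 2, 3, 2, 1, 2],[2, 1, 0, 1, 2, 1, 0, 1, 2],[1],[0, 3, 0, 1, 0, 3, 2, 1, 2],[3],[0, 3, 2, 3, 0, 3, 2, 3, 0],[],[],[],[],[],[],[],[],[]]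
/-- Words for the transvections. -/
def W (i j c : ℕ) : List ℕ := TW.getD ((i * 2 + j) * 9 + c) []

theorem c_allT : allT add9 mul9 2 9 4 Ls W = true := by decide +kernel
theorem c_det : ∀ a < 4, det2C add9 mul9 (Ls.getD a []) = true := by decide +kernel
theorem c_inv : ∀ a < 2, mulC add9 mul9 2 (Ls.getD (a + 2) []) (Ls.getD a []) = idC 2 := by decide +kernel

/-- The multiplier of the group. -/
theorem result {F : Type*} [Field F] [Fintype F] (hF : Fintype.card F = 9) :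
    Cfsg.HasSchurMultiplier (Matrix.SpecialLinearGroup (Fin 2) F) (Multiplicative (ZMod 3)) := by
  classical
  obtain ⟨R⟩ := exists_rep9 hF
  have hdet : ∀ a < 4, (toM R.φ 2 (Ls.getD a [])).det = 1 := fun a ha =>
    det2_of R.hadd R.hmul R.h1 _ (c_det a ha)
  set γ := slLetters R.φ 2 Ls hdet with hγdef
  have hγ : ∀ a < 4, (γ a).1 = toM R.φ 2 (Ls.getD a []) := fun a ha => slLetters_val ha
  have hinv : ∀ a < 2, γ (a + 2) = (γ a)⁻¹ := slLetters_inv (L := Ls) (hdet := hdet) R.hadd R.hmul R.h0 R.h1 c_inv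
  have hclo := sl_closure (q := 9) R.hadd R.hmul R.h0 R.h1 R.hsurj hγ W (of_allT c_allT)
  refine main γ hinv hclo ?_ ?_ ?_
  · intro w hw h
    exact sl_eq_one R.hadd R.hmul R.h0 R.h1 hγ w hw h
  · intro w hw h
    exact sl_ne_one R.hadd R.hmul R.h0 R.h1 R.hinj hγ w hw h
  · -- the order
    have h1 := Cfsg.Agent.Lib.Classical.card_GL_eq_mul_card_SL (F := F) (Fin 2)
    have h3 : Nat.card F = 9 := by rw [Nat.card_eq_fintype_card, hF]
    rw [Matrix.card_GL_field, hF, h3, Fin.prod_univ_two] at h1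
    norm_num at h1
    rw [Nat.card_eq_fintype_card]
    omega

end Cfsg.Agent.Lib.KnownSimple.SL29Lab
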